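import Mathlib
import Cfsg.Agent.Lib.BitClose
import Cfsg.Agent.Lib.F24Base
import Cfsg.Agent.TcData.F24z.Pr0
import Cfsg.Agent.TcData.F24z.Pr1
import Cfsg.Agent.TcData.F24z.Pr2
import Cfsg.Agent.TcData.F24z.Pr3
import Cfsg.Agent.TcData.F24z.Pr4
import Cfsg.Agent.TcData.F24z.Pr5
import Cfsg.Agent.TcData.F24z.Pr6
import Cfsg.Agent.TcData.F24z.Pr7
import Cfsg.Agent.TcData.F24z.Pr8
import Cfsg.Agent.TcData.F24z.Pr9
import Cfsg.Agent.TcData.F24z.Pr10
import Cfsg.Agent.TcData.F24z.Pr11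
import Cfsg.Agent.TcData.F24z.Pr12
import Cfsg.Agent.TcData.F24z.Pr13
import Cfsg.Agent.TcData.F24z.Pr14

set_option autoImplicit false
set_option Elab.async false
set_option maxRecDepth 100000
set_option linter.all false

namespace Cfsg.Agent.TcData.F24z

open Cfsg.Agent.Lib.TcBits Cfsg.Agent.Lib.CoxCert Cfsg.Agent.Lib.BitClose Cfsg.Agent.Lib.F24Base

/-- The letters on 920808 names, with two long words. -/
noncomputable def Lx : List (List (ℕ × ℕ)) :=
  [pr0, pr1, pr2, pr3, pr4, pr5, pr6, pr7, pr8, pr9, pr10, pr11, pr12, pr13, pr14]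

theorem Lx_valid : validAll 1048576 Lx = true := by decide +kernel

end Cfsg.Agent.TcData.F24z
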