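import Mathlib
import Cfsg.Agent.TcData.F24z.RepL

set_option autoImplicit false
set_option Elab.async false
set_option maxRecDepth 100000
set_option linter.all false

namespace Cfsg.Agent.TcData.F24z

open Cfsg.Agent.Lib.TcBits Cfsg.Agent.Lib.CoxCert Cfsg.Agent.Lib.BitClose Cfsg.Agent.Lib.F24Base

theorem cx0_1 : wordChk (pget Lx) 1048576 20 (coxL 0 1).reverse = true := by decide +kernel

theorem cx0_2 : wordChk (pget Lx) 1048576 20 (coxL 0 2).reverse = true := by decide +kernel

theorem cx0_3 : wordChk (pget Lx) 1048576 20 (coxL 0 3).reverse = true := by decide +kernel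

theorem cx0_4 : wordChk (pget Lx) 1048576 20 (coxL 0 4).reverse = true := by decide +kernel

theorem cx0_5 : wordChk (pget Lx) 1048576 20 (coxL 0 5).reverse = true := by decide +kernel

theorem cx0_6 : wordChk (pget Lx) 1048576 20 (coxL 0 6).reverse = true := by decide +kernel

theorem cx0_7 : wordChk (pget Lx) 1048576 20 (coxL 0 7).reverse = true := by decide +kernel

theorem cx0_8 : wordChk (pget Lx) 1048576 20 (coxL 0 8).reverse = true := by decide +kernel

theorem cx0_9 : wordChk (pget Lx) 1048576 20 (coxL 0 9).reverse = true := by decide +kernel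

theorem cx0_10 : wordChk (pget Lx) 1048576 20 (coxL 0 10).reverse = true := by decide +kernel

theorem cx0_11 : wordChk (pget Lx) 1048576 20 (coxL 0 11).reverse = true := by decide +kernel

theorem cx1_2 : wordChk (pget Lx) 1048576 20 (coxL 1 2).reverse = true := by decide +kernel

theorem cx1_3 : wordChk (pget Lx) 1048576 20 (coxL 1 3).reverse = true := by decide +kernel

theorem cx1_4 : wordChk (pget Lx) 1048576 20 (coxL 1 4).reverse = true := by decide +kernel

theorem cx1_5 : wordChk (pget Lx) 1048576 20 (coxL 1 5).reverse = true := by decide +kernel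

theorem cx1_6 : wordChk (pget Lx) 1048576 20 (coxL 1 6).reverse = true := by decide +kernel

theorem cx1_7 : wordChk (pget Lx) 1048576 20 (coxL 1 7).reverse = true := by decide +kernel

theorem cx1_8 : wordChk (pget Lx) 1048576 20 (coxL 1 8).reverse = true := by decide +kernel

theorem cx1_9 : wordChk (pget Lx) 1048576 20 (coxL 1 9).reverse = true := by decide +kernel

theorem cx1_10 : wordChk (pget Lx) 1048576 20 (coxL 1 10).reverse = true := by decide +kernel

theorem cx1_11 : wordChk (pget Lx) 1048576 20 (coxL 1 11).reverse = true := by decide +kernel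

theorem cx2_3 : wordChk (pget Lx) 1048576 20 (coxL 2 3).reverse = true := by decide +kernel

theorem cx2_4 : wordChk (pget Lx) 1048576 20 (coxL 2 4).reverse = true := by decide +kernel

theorem cx2_5 : wordChk (pget Lx) 1048576 20 (coxL 2 5).reverse = true := by decide +kernel

theorem cx2_6 : wordChk (pget Lx) 1048576 20 (coxL 2 6).reverse = true := by decide +kernel

theorem cx2_7 : wordChk (pget Lx) 1048576 20 (coxL 2 7).reverse = true := by decide +kernel

theorem cx2_8 : wordChk (pget Lx) 1048576 20 (coxL 2 8).reverse = true := by decide +kernel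

theorem cx2_9 : wordChk (pget Lx) 1048576 20 (coxL 2 9).reverse = true := by decide +kernel

theorem cx2_10 : wordChk (pget Lx) 1048576 20 (coxL 2 10).reverse = true := by decide +kernel

theorem cx2_11 : wordChk (pget Lx) 1048576 20 (coxL 2 11).reverse = true := by decide +kernel

theorem cx3_4 : wordChk (pget Lx) 1048576 20 (coxL 3 4).reverse = true := by decide +kernel

theorem cx3_5 : wordChk (pget Lx) 1048576 20 (coxL 3 5).reverse = true := by decide +kernel

theorem cx3_6 : wordChk (pget Lx) 1048576 20 (coxL 3 6).reverse = true := by decide +kernel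

end Cfsg.Agent.TcData.F24z
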