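import Mathlib
import Cfsg.Agent.TcData.F24z.RepL

set_option autoImplicit false
set_option Elab.async false
set_option maxRecDepth 100000
set_option linter.all false

namespace Cfsg.Agent.TcData.F24z

open Cfsg.Agent.Lib.TcBits Cfsg.Agent.Lib.CoxCert Cfsg.Agent.Lib.BitClose Cfsg.Agent.Lib.F24Base

theorem cx3_7 : wordChk (pget Lx) 1048576 20 (coxL 3 7).reverse = true := by decide +kernel

theorem cx3_8 : wordChk (pget Lx) 1048576 20 (coxL 3 8).reverse = true := by decide +kernel

theorem cx3_9 : wordChk (pget Lx) 1048576 20 (coxL 3 9).reverse = true := by decide +kernel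

theorem cx3_10 : wordChk (pget Lx) 1048576 20 (coxL 3 10).reverse = true := by decide +kernel

theorem cx3_11 : wordChk (pget Lx) 1048576 20 (coxL 3 11).reverse = true := by decide +kernel

theorem cx4_5 : wordChk (pget Lx) 1048576 20 (coxL 4 5).reverse = true := by decide +kernel

theorem cx4_6 : wordChk (pget Lx) 1048576 20 (coxL 4 6).reverse = true := by decide +kernel

theorem cx4_7 : wordChk (pget Lx) 1048576 20 (coxL 4 7).reverse = true := by decide +kernel

theorem cx4_8 : wordChk (pget Lx) 1048576 20 (coxL 4 8).reverse = true := by decide +kernel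

theorem cx4_9 : wordChk (pget Lx) 1048576 20 (coxL 4 9).reverse = true := by decide +kernel

theorem cx4_10 : wordChk (pget Lx) 1048576 20 (coxL 4 10).reverse = true := by decide +kernel

theorem cx4_11 : wordChk (pget Lx) 1048576 20 (coxL 4 11).reverse = true := by decide +kernel

theorem cx5_6 : wordChk (pget Lx) 1048576 20 (coxL 5 6).reverse = true := by decide +kernel

theorem cx5_7 : wordChk (pget Lx) 1048576 20 (coxL 5 7).reverse = true := by decide +kernel

theorem cx5_8 : wordChk (pget Lx) 1048576 20 (coxL 5 8).reverse = true := by decide +kernel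

theorem cx5_9 : wordChk (pget Lx) 1048576 20 (coxL 5 9).reverse = true := by decide +kernel

theorem cx5_10 : wordChk (pget Lx) 1048576 20 (coxL 5 10).reverse = true := by decide +kernel

theorem cx5_11 : wordChk (pget Lx) 1048576 20 (coxL 5 11).reverse = true := by decide +kernel

theorem cx6_7 : wordChk (pget Lx) 1048576 20 (coxL 6 7).reverse = true := by decide +kernel

theorem cx6_8 : wordChk (pget Lx) 1048576 20 (coxL 6 8).reverse = true := by decide +kernel

theorem cx6_9 : wordChk (pget Lx) 1048576 20 (coxL 6 9).reverse = true := by decide +kernel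

theorem cx6_10 : wordChk (pget Lx) 1048576 20 (coxL 6 10).reverse = true := by decide +kernel

theorem cx6_11 : wordChk (pget Lx) 1048576 20 (coxL 6 11).reverse = true := by decide +kernel

theorem cx7_8 : wordChk (pget Lx) 1048576 20 (coxL 7 8).reverse = true := by decide +kernel

theorem cx7_9 : wordChk (pget Lx) 1048576 20 (coxL 7 9).reverse = true := by decide +kernel

theorem cx7_10 : wordChk (pget Lx) 1048576 20 (coxL 7 10).reverse = true := by decide +kernel

theorem cx7_11 : wordChk (pget Lx) 1048576 20 (coxL 7 11).reverse = true := by decide +kernel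

theorem cx8_9 : wordChk (pget Lx) 1048576 20 (coxL 8 9).reverse = true := by decide +kernel

theorem cx8_10 : wordChk (pget Lx) 1048576 20 (coxL 8 10).reverse = true := by decide +kernel

theorem cx8_11 : wordChk (pget Lx) 1048576 20 (coxL 8 11).reverse = true := by decide +kernel

theorem cx9_10 : wordChk (pget Lx) 1048576 20 (coxL 9 10).reverse = true := by decide +kernel

theorem cx9_11 : wordChk (pget Lx) 1048576 20 (coxL 9 11).reverse = true := by decide +kernel

theorem cx10_11 : wordChk (pget Lx) 1048576 20 (coxL 10 11).reverse = true := by decide +kernel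

end Cfsg.Agent.TcData.F24z
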