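import Mathlib
import Cfsg.Agent.TcData.F24z.RepL

set_option autoImplicit false
set_option Elab.async false
set_option maxRecDepth 100000
set_option linter.all false

namespace Cfsg.Agent.TcData.F24z

open Cfsg.Agent.Lib.TcBits Cfsg.Agent.Lib.CoxCert Cfsg.Agent.Lib.BitClose Cfsg.Agent.Lib.F24Base

theorem iv0 : wordChk (pget Lx) 1048576 20 ([12, 5, 0, 12, 5, 0] : List ℕ).reverse = true := by decide +kernel

theorem iv1 : wordChk (pget Lx) 1048576 20 ([12, 5, 1, 12, 5, 1] : List ℕ).reverse = true := by decide +kernel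

theorem iv2 : wordChk (pget Lx) 1048576 20 ([12, 5, 2, 12, 5, 2] : List ℕ).reverse = true := by decide +kernel

theorem iv3 : wordChk (pget Lx) 1048576 20 ([12, 5, 3, 12, 5, 3] : List ℕ).reverse = true := by decide +kernel

theorem iv4 : wordChk (pget Lx) 1048576 20 ([12, 5, 4, 12, 5, 4] : List ℕ).reverse = true := by decide +kernel

theorem iv6 : wordChk (pget Lx) 1048576 20 ([12, 5, 6, 12, 5, 6] : List ℕ).reverse = true := by decide +kernel

theorem iv7 : wordChk (pget Lx) 1048576 20 ([12, 5, 7, 12, 5, 7] : List ℕ).reverse = true := by decide +kernel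

theorem iv8 : wordChk (pget Lx) 1048576 20 ([12, 5, 8, 12, 5, 8] : List ℕ).reverse = true := by decide +kernel

theorem iv9 : wordChk (pget Lx) 1048576 20 ([12, 5, 9, 12, 5, 9] : List ℕ).reverse = true := by decide +kernel

theorem iv10 : wordChk (pget Lx) 1048576 20 ([12, 5, 10, 12, 5, 10] : List ℕ).reverse = true := by decide +kernel

theorem iv11 : wordChk (pget Lx) 1048576 20 ([12, 5, 11, 12, 5, 11] : List ℕ).reverse = true := by decide +kernel

theorem cb : wordChk (pget Lx) 1048576 20 ([12, 5, 12, 5, 12, 5] : List ℕ).reverse = true := by decide +kernel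

theorem wu : walkPt (pget Lx) [12, 5] 0 ≠ 0 := by decide +kernel

end Cfsg.Agent.TcData.F24z
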