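import Mathlib
import Cfsg.Agent.TcData.F24z.RepL

set_option autoImplicit false
set_option Elab.async false
set_option maxRecDepth 100000
set_option linter.all false

namespace Cfsg.Agent.TcData.F24z

open Cfsg.Agent.Lib.TcBits Cfsg.Agent.Lib.CoxCert Cfsg.Agent.Lib.BitClose Cfsg.Agent.Lib.F24Base

theorem sq0 : wordChk (pget Lx) 1048576 20 [0, 0] = true := by decide +kernel

theorem sq1 : wordChk (pget Lx) 1048576 20 [1, 1] = true := by decide +kernel

theorem sq2 : wordChk (pget Lx) 1048576 20 [2, 2] = true := by decide +kernel

theorem sq3 : wordChk (pget Lx) 1048576 20 [3, 3] = true := by decide +kernel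

theorem sq4 : wordChk (pget Lx) 1048576 20 [4, 4] = true := by decide +kernel

theorem sq5 : wordChk (pget Lx) 1048576 20 [5, 5] = true := by decide +kernel

theorem sq6 : wordChk (pget Lx) 1048576 20 [6, 6] = true := by decide +kernel

theorem sq7 : wordChk (pget Lx) 1048576 20 [7, 7] = true := by decide +kernel

theorem sq8 : wordChk (pget Lx) 1048576 20 [8, 8] = true := by decide +kernel

theorem sq9 : wordChk (pget Lx) 1048576 20 [9, 9] = true := by decide +kernel

theorem sq10 : wordChk (pget Lx) 1048576 20 [10, 10] = true := by decide +kernel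

theorem sq11 : wordChk (pget Lx) 1048576 20 [11, 11] = true := by decide +kernel

theorem sq12 : wordChk (pget Lx) 1048576 20 [12, 12] = true := by decide +kernel

end Cfsg.Agent.TcData.F24z
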