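import Mathlib
import Cfsg.Agent.TcData.F24z.RepL

set_option autoImplicit false
set_option Elab.async false
set_option maxRecDepth 100000
set_option linter.all false

namespace Cfsg.Agent.TcData.F24z

open Cfsg.Agent.Lib.TcBits Cfsg.Agent.Lib.CoxCert Cfsg.Agent.Lib.BitClose Cfsg.Agent.Lib.F24Base

theorem wz1 : wordChk (pget Lx) 1048576 20 (z1W ++ [13]).reverse = true := by decide +kernel

theorem wz2 : wordChk (pget Lx) 1048576 20 ([12, 5] ++ (List.replicate 17 [13]).flatten).reverse = true := by decide +kernel

theorem we1 : wordChk (pget Lx) 1048576 20 (e7W ++ [14]).reverse = true := by decide +kernel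

theorem we2 : wordChk (pget Lx) 1048576 20 ([5] ++ (List.replicate 9 [14]).flatten).reverse = true := by decide +kernel

end Cfsg.Agent.TcData.F24z
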