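import Mathlib
import Cfsg.Agent.TcData.F24z.RepS
import Cfsg.Agent.TcData.F24z.RepC0
import Cfsg.Agent.TcData.F24z.RepC1
import Cfsg.Agent.TcData.F24z.RepI
import Cfsg.Agent.TcData.F24z.RepW

set_option autoImplicit false
set_option linter.all false

namespace Cfsg.Agent.TcData.F24z

open Cfsg.Agent.Lib.TcBits Cfsg.Agent.Lib.CoxCert Cfsg.Agent.Lib.BitClose Cfsg.Agent.Lib.F24Base

/-- The letters as permutations. -/
noncomputable abbrev piZ (x : ℕ) : Equiv.Perm ℕ := piP (pget Lx) x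

theorem hnZ : 1048576 ≤ 2 ^ 20 := by norm_num

theorem hvZ : ∀ a, validProg 1048576 (pget Lx a) = true := valid_pget Lx_valid

/-- A checked word is trivial. -/
theorem piZ_chk (w : List ℕ) (h : wordChk (pget Lx) 1048576 20 w.reverse = true) : ev piZ w = 1 :=
  ev_one_of_chk hnZ w hvZ h

theorem piZ_sq {x : ℕ} (hx : x < 13) : piZ x * piZ x = 1 := by
  have key : wordChk (pget Lx) 1048576 20 ([x, x] : List ℕ).reverse = true := by
    have hr : ([x, x] : List ℕ).reverse = [x, x] := rfl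
    rw [hr]
    interval_cases x
    exacts [sq0, sq1, sq2, sq3, sq4, sq5, sq6, sq7, sq8, sq9, sq10, sq11, sq12]
  have h := piZ_chk [x, x] key
  simpa [ev_cons, ev_nil] using h

theorem piZ_coxlt {a b : ℕ} (hab : a < b) (hb : b < 12) : ev piZ (coxL a b) = 1 := by
  apply piZ_chk
  have hb' : b = 1 ∨ b = 2 ∨ b = 3 ∨ b = 4 ∨ b = 5 ∨ b = 6 ∨ b = 7 ∨ b = 8 ∨ b = 9 ∨ b = 10 ∨ b = 11 := by omega
  rcases hb' with rfl | rfl | rfl | rfl | rfl | rfl | rfl | rfl | rfl | rfl | rfl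
  · interval_cases a
    exacts [cx0_1]
  · interval_cases a
    exacts [cx0_2, cx1_2]
  · interval_cases a
    exacts [cx0_3, cx1_3, cx2_3]
  · interval_cases a
    exacts [cx0_4, cx1_4, cx2_4, cx3_4]
  · interval_cases a
    exacts [cx0_5, cx1_5, cx2_5, cx3_5, cx4_5]
  · interval_cases a
    exacts [cx0_6, cx1_6, cx2_6, cx3_6, cx4_6, cx5_6]
  · interval_cases a
    exacts [cx0_7, cx1_7, cx2_7, cx3_7, cx4_7, cx5_7, cx6_7]
  · interval_cases a
    exacts [cx0_8, cx1_8, cx2_8, cx3_8, cx4_8, cx5_8, cx6_8, cx7_8]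
  · interval_cases a
    exacts [cx0_9, cx1_9, cx2_9, cx3_9, cx4_9, cx5_9, cx6_9, cx7_9, cx8_9]
  · interval_cases a
    exacts [cx0_10, cx1_10, cx2_10, cx3_10, cx4_10, cx5_10, cx6_10, cx7_10, cx8_10, cx9_10]
  · interval_cases a
    exacts [cx0_11, cx1_11, cx2_11, cx3_11, cx4_11, cx5_11, cx6_11, cx7_11, cx8_11, cx9_11, cx10_11]

/-- The spider word is inverted by the letters. -/
theorem piZ_iv {x : ℕ} (hx : x < 12) (h5 : x ≠ 5) : ev piZ [12, 5, x, 12, 5, x] = 1 := by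
  apply piZ_chk
  have hb' : x = 0 ∨ x = 1 ∨ x = 2 ∨ x = 3 ∨ x = 4 ∨ x = 6 ∨ x = 7 ∨ x = 8 ∨ x = 9 ∨ x = 10 ∨ x = 11 := by omega
  rcases hb' with rfl | rfl | rfl | rfl | rfl | rfl | rfl | rfl | rfl | rfl | rfl
  exacts [iv0, iv1, iv2, iv3, iv4, iv6, iv7, iv8, iv9, iv10, iv11]

theorem piZ_cube : ev piZ [12, 5, 12, 5, 12, 5] = 1 := piZ_chk _ cb

theorem walku_ne : ev piZ [12, 5] 0 ≠ 0 := by
  rw [walkPt_eq hvZ]
  exact wu

theorem piZ_inv {x : ℕ} (hx : x < 13) : (piZ x)⁻¹ = piZ x := inv_eq_of_mul_eq_one_left (piZ_sq hx)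

/-- The relator of `l`. -/
theorem piZ_lW : ev piZ lW = 1 := by
  have h1 : ev piZ (e7W ++ [14]) = 1 := piZ_chk _ we1
  have h2 : ev piZ ([5] ++ (List.replicate 9 [14]).flatten) = 1 := piZ_chk _ we2
  rw [ev_append, ev_cons, ev_nil, one_mul] at h1
  rw [ev_append, ev_rep, ev_cons, ev_nil, one_mul, ev_cons, ev_nil, one_mul] at h2
  have h3 : ev piZ e7W = (piZ 14)⁻¹ := eq_inv_of_mul_eq_one_right h1
  rw [ev_lW, h3, inv_pow, eq_inv_of_mul_eq_one_left h2, inv_inv, piZ_sq (by norm_num)]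

/-- The relator of `u`. -/
theorem piZ_uW : ev piZ zW = piZ 5 * piZ 12 := by
  have h1 : ev piZ (z1W ++ [13]) = 1 := piZ_chk _ wz1
  have h2 : ev piZ ([12, 5] ++ (List.replicate 17 [13]).flatten) = 1 := piZ_chk _ wz2
  rw [ev_append, ev_cons, ev_nil, one_mul] at h1
  rw [ev_append, ev_rep, ev_cons, ev_nil, one_mul, ev_cons, ev_cons, ev_nil, one_mul] at h2
  have h3 : ev piZ z1W = (piZ 13)⁻¹ := eq_inv_of_mul_eq_one_right h1
  rw [ev_zW, h3, inv_pow, eq_inv_of_mul_eq_one_left h2, inv_inv]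

end Cfsg.Agent.TcData.F24z
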